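import Cfsg.Agent.Lib.ToddCox.RUC1.P0
set_option autoImplicit false
set_option maxRecDepth 100000
namespace Cfsg.Agent.Lib.ToddCox.RUC1
theorem covered : Covered Eo inv W isH 23143 57461 := (Covered.trans (Covered.trans (Covered.trans (Covered.trans c0 c1) (Covered.trans c2 c3)) (Covered.trans (Covered.trans c4 c5) (Covered.trans c6 (Covered.trans c7 c8)))) (Covered.trans (Covered.trans (Covered.trans c9 c10) (Covered.trans c11 c12)) (Covered.trans (Covered.trans c13 c14) (Covered.trans c15 (Covered.trans c16 c17)))))
theorem links : LinksOK Eo cF (2 * nEv) N ys 0 2304 := (LinksOK.trans k0 (LinksOK.trans k1 k2))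
theorem defs : ∀ c, c < nDef → chkDef Eo inv c = true := defs_of_bits 23143 13 3 (by norm_num) (by
  intro j hj
  interval_cases j
  · exact d0
  · exact d1
  · exact d2
  )
theorem words : ∀ j, j < nW → wordsOK W (relR Rb inv) inv sp j = true := allBelow_spec (by norm_num [nW]) wordsGood
end Cfsg.Agent.Lib.ToddCox.RUC1
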